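import Mathlib

/-! The counting equation of an overgroup of the normaliser of a Singer torus in `SU₃(q)`. -/

set_option autoImplicit false

namespace Cfsg.Agent.H25.SUThree

/-- the test at a small `q` -/
def smallOK (q a : ℕ) : Bool :=
  let t := (q * q - q + 1) / 3
  let P := q ^ 3 * (q * q - 1) * (q + 1) / 3
  let k := 1 + a * t
  decide ((q + 1) % 3 ≠ 0) || decide (P % k ≠ 0) || decide ((P / k - 1) % t ≠ 0) ||
    decide (P / k ≤ q ^ 3) || (q == 8 && a == 5) || q == 5 || q == 14 || q == 2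

theorem small_check : ((List.range 29).all fun q => (List.range (q + 1)).all fun a => smallOK q (a + 1)) = true := by
  decide +kernel

/-- the test at a large `q` -/
def largeOK (a c q : ℕ) : Bool :=
  decide (a * c < 10) || decide (27 < a * c) || decide (q = 35) ||
    decide ((a * c - 9) * (q * q - q + 1) + 3 * c ≠ 3 * (a * a) + 12 * a * q + 15 * a + 36 * q + 9)

theorem large_check : ((List.range 28).all fun a => (List.range 28).all fun c =>
    decide (a * c < 10) || decide (27 < a * c) ||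
      (List.range 341).all fun i => largeOK a c (i + 29)) = true := by
  decide +kernel

set_option maxHeartbeats 1000000 in
/-- No overgroup when `3` does not divide `q + 1`. -/
theorem arith_one {q a b s : ℕ} (hq : 4 ≤ q) (h3 : q % 3 ≠ 2) (h6 : q ≠ 6) (hs : s + q = q * q + 1)
    (ha : 1 ≤ a) (hb : q ^ 3 ≤ b * s)
    (heq : 3 * ((1 + a * s) * (1 + b * s)) = q ^ 3 * (q * q - 1) * (q + 1)) : False := by
  have hq2 : 1 ≤ q * q := by nlinarith
  zify [hq2] at heq hb hs
  have hQ : (4 : ℤ) ≤ q := by exact_mod_cast hq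
  have hA1 : (1 : ℤ) ≤ a := by exact_mod_cast ha
  have hs1 : (1 : ℤ) < s := by nlinarith
  have hB : (q : ℤ) + 1 ≤ b := by
    by_contra h
    push Not at h
    have : (b : ℤ) * s ≤ q * s := mul_le_mul_of_nonneg_right (by omega) (by omega)
    nlinarith
  have key : 3 * ((a : ℤ) + b + a * b * s) = (q + 1) * (q + 2) * s - (4 * q + 5) := by
    refine mul_left_cancel₀ (show (s : ℤ) ≠ 0 by omega) ?_
    have e : (s : ℤ) = q * q - q + 1 := by omega
    linear_combination heq + ((4 * (q : ℤ) + 5) - (q + 1) * (q + 2) * (s + (q * q - q + 1))) * e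
  obtain ⟨c, hc⟩ : ∃ c, c = ((q : ℤ) + 1) * (q + 2) - 3 * (a * b) := ⟨_, rfl⟩
  have hcs : c * s = 3 * a + 3 * b + 4 * q + 5 := by
    rw [hc]; linear_combination -key
  have hc1 : 1 ≤ c := by
    by_contra h
    push Not at h
    have : c * s ≤ 0 := mul_nonpos_of_nonpos_of_nonneg (by omega) (by omega)
    omega
  have hc2 : 2 ≤ c := by
    by_contra h
    obtain ⟨j, r, hr, hqj⟩ : ∃ j r : ℕ, (r = 0 ∨ r = 1) ∧ q = 3 * j + r := ⟨q / 3, q % 3, by omega, by omega⟩
    obtain ⟨u, hu⟩ : ∃ u, u = (a : ℤ) * b := ⟨_, rfl⟩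
    rw [← hu] at hc
    subst hqj
    obtain ⟨v, hv⟩ : ∃ v, v = (j : ℤ) * j := ⟨_, rfl⟩
    push_cast at hc
    rcases hr with rfl | rfl
    · have : c = 3 * (3 * v) + 9 * j + 2 - 3 * u := by rw [hc, hv]; push_cast; ring
      omega
    · have : c = 3 * (3 * v) + 15 * j + 6 - 3 * u := by rw [hc, hv]; push_cast; ring
      omega
  have hab : (a : ℤ) + b ≤ 1 + a * b := by
    nlinarith [mul_nonneg (sub_nonneg.2 hA1) (show (0 : ℤ) ≤ (b : ℤ) - 1 by omega)]
  have hq9 : q ≤ 9 := by
    by_contra h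
    have : (10 : ℤ) ≤ q := by omega
    have : 2 * (s : ℤ) ≤ c * s := mul_le_mul_of_nonneg_right hc2 (by omega)
    nlinarith
  have ha3 : a ≤ 3 := by
    by_contra h
    have : 4 * ((q : ℤ) + 1) ≤ a * b := mul_le_mul (by omega) hB (by omega) (by omega)
    have : (q : ℤ) * q ≤ 9 * q := mul_le_mul_of_nonneg_right (by omega) (by omega)
    nlinarith
  obtain rfl : s = q * q + 1 - q := by omega
  interval_cases q <;> interval_cases a <;> first | omega | (norm_num at key ⊢ <;> omega)

set_option maxHeartbeats 1000000 in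
/-- The only overgroup when `3` divides `q + 1` is at `q = 8`. -/
theorem arith_three {q a b s t : ℕ} (hq : 4 ≤ q) (h3 : q % 3 = 2) (h5 : q ≠ 5) (h14 : q ≠ 14) (h35 : q ≠ 35)
    (hs : s + q = q * q + 1) (ht : 3 * t = s) (ha : 1 ≤ a) (hb : q ^ 3 ≤ b * t)
    (heq : 3 * ((1 + a * t) * (1 + b * t)) = q ^ 3 * (q * q - 1) * (q + 1)) : q = 8 ∧ a = 5 := by
  have hq2 : 1 ≤ q * q := by nlinarith
  have hN0 := heq
  zify [hq2] at heq hb hs ht
  have hA1 : (1 : ℤ) ≤ a := by exact_mod_cast ha
  have hQ : (4 : ℤ) ≤ q := by exact_mod_cast hq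
  have hs1 : (3 : ℤ) < s := by nlinarith
  have hB : 3 * (q : ℤ) + 3 ≤ b := by
    by_contra h
    push Not at h
    have : (b : ℤ) * s ≤ (3 * q + 2) * s := mul_le_mul_of_nonneg_right (by omega) (by omega)
    nlinarith
  have key : (a : ℤ) + b + a * b * t = 3 * ((q + 1) * (q + 2)) * t - (4 * q + 5) := by
    refine mul_left_cancel₀ (show (3 : ℤ) * t ≠ 0 by omega) ?_
    have e : (q : ℤ) * q = 3 * t + q - 1 := by omega
    linear_combination heq + (((q : ℤ) + 1) * (q + 2) * (3 * t + (q * q - q + 1)) - (4 * q + 5)) * e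
  obtain ⟨c, hc⟩ : ∃ c, c = 3 * (((q : ℤ) + 1) * (q + 2)) - a * b := ⟨_, rfl⟩
  have hct : c * t = a + b + 4 * q + 5 := by
    rw [hc]; linear_combination -key
  have hc1 : 1 ≤ c := by
    by_contra h
    push Not at h
    have : c * t ≤ 0 := mul_nonpos_of_nonpos_of_nonneg (by omega) (by omega)
    omega
  have haq : a ≤ q + 1 := by
    by_contra h
    have : ((q : ℤ) + 2) * (3 * q + 3) ≤ a * b := mul_le_mul (by omega) hB (by omega) (by omega)
    nlinarith
  rcases Nat.lt_or_ge q 29 with hlt | hge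
  · obtain ⟨l, hl⟩ : ∃ l, l = 1 + b * t := ⟨_, rfl⟩
    obtain ⟨k, hk⟩ : ∃ k, k = 1 + a * t := ⟨_, rfl⟩
    have hsN : s + q = q * q + 1 := by omega
    have hte : (q * q - q + 1) / 3 = t := by omega
    have hP : q ^ 3 * (q * q - 1) * (q + 1) / 3 = k * l := by
      rw [← hN0, Nat.mul_div_cancel_left _ (by norm_num), hk, hl]
    have hk0 : 0 < k := by omega
    have hdiv : q ^ 3 * (q * q - 1) * (q + 1) / 3 / k = l := by rw [hP, Nat.mul_div_cancel_left _ hk0]
    have hbN : q ^ 3 ≤ b * t := by exact_mod_cast hb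
    have h := List.all_eq_true.1 (List.all_eq_true.1 small_check q (List.mem_range.2 hlt)) (a - 1)
      (List.mem_range.2 (by omega))
    rw [Nat.sub_add_cancel ha] at h
    simp only [smallOK, hte, ← hk, hdiv, Bool.or_eq_true, decide_eq_true_eq, Bool.and_eq_true,
      beq_iff_eq] at h
    rcases h with ((((((h | h) | h) | h) | h) | h) | h) | h
    · omega
    · exact absurd (by rw [hP]; exact Nat.mul_mod_right k l) h
    · exact absurd (by rw [hl, Nat.add_sub_cancel_left]; exact Nat.mul_mod_left b t) h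
    all_goals omega
  · exfalso
    have hae : ((a : ℤ) * c - 9) * s = 3 * (a * a) + 12 * a * q + 15 * a + 36 * q + 9 - 3 * c := by
      have e : (q : ℤ) * q = 3 * t + q - 1 := by omega
      have e2 : (s : ℤ) = 3 * t := by omega
      rw [e2]
      linear_combination (3 * (a : ℤ)) * hct + 3 * hc + 9 * e
    have hQ29 : (29 : ℤ) ≤ q := by exact_mod_cast hge
    have hAq : (a : ℤ) ≤ q + 1 := by exact_mod_cast haq
    have he1 : 10 ≤ (a : ℤ) * c := by
      by_contra h
      have : ((a : ℤ) * c - 9) * s ≤ 0 := mul_nonpos_of_nonpos_of_nonneg (by omega) (by omega)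
      have hc9 : c ≤ a * c := le_mul_of_one_le_left (by omega) hA1
      nlinarith
    have he2 : (a : ℤ) * c ≤ 27 := by
      by_contra h
      have h19 : 19 * (s : ℤ) ≤ (a * c - 9) * s := mul_le_mul_of_nonneg_right (by omega) (by omega)
      have : (a : ℤ) * a ≤ (q + 1) * (q + 1) := mul_le_mul hAq hAq (by omega) (by omega)
      have : (a : ℤ) * q ≤ (q + 1) * q := mul_le_mul_of_nonneg_right hAq (by omega)
      nlinarith
    have ha27 : (a : ℤ) ≤ 27 := le_trans (le_mul_of_one_le_right (by omega) hc1) he2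
    have hc27 : c ≤ 27 := le_trans (le_mul_of_one_le_left (by omega) hA1) he2
    have hq370 : q < 370 := by
      by_contra h
      have : (s : ℤ) ≤ (a * c - 9) * s := le_mul_of_one_le_left (by omega) (by omega)
      have : (370 : ℤ) ≤ q := by omega
      have : (a : ℤ) * a ≤ 729 := by nlinarith
      have : (a : ℤ) * q ≤ 27 * q := mul_le_mul_of_nonneg_right ha27 (by omega)
      nlinarith
    obtain ⟨cn, rfl⟩ : ∃ cn : ℕ, c = cn := ⟨c.toNat, by omega⟩
    have h9 : 9 ≤ a * cn := by exact_mod_cast (show (9 : ℤ) ≤ a * cn by omega)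
    have hqq : q ≤ q * q := Nat.le_mul_self q
    have h10 : 10 ≤ a * cn := by exact_mod_cast he1
    have h27 : a * cn ≤ 27 := by exact_mod_cast he2
    have h := List.all_eq_true.1 (List.all_eq_true.1 large_check a (List.mem_range.2 (by omega))) cn
      (List.mem_range.2 (by omega))
    simp only [Bool.or_eq_true, decide_eq_true_eq] at h
    have h' := List.all_eq_true.1 ((h.resolve_left (by omega))) (q - 29) (List.mem_range.2 (by omega))
    rw [Nat.sub_add_cancel hge] at h'
    simp only [largeOK, Bool.or_eq_true, decide_eq_true_eq] at h'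
    rcases h' with ((h' | h') | h') | h'
    · omega
    · omega
    · exact h35 h'
    refine h' ?_
    zify [h9, hqq]
    have e : (s : ℤ) = q * q - q + 1 := by omega
    rw [← e]
    linear_combination hae

end Cfsg.Agent.H25.SUThree
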