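import Mathlib

/-! Overgroups of the normaliser of a torus with a Hall subgroup acting freely. -/

set_option autoImplicit false

namespace Cfsg.Agent.H25.SUThree

open Subgroup MulAction

variable {G : Type*} [Group G] [Finite G]

/-- The index of a subgroup on whose other cosets `T₀` acts freely. -/
theorem exists_index_eq (M T₀ : Subgroup G) (hle : T₀ ≤ M)
    (h : ∀ x ∈ T₀, x ≠ 1 → ∀ g : G, g⁻¹ * x * g ∈ M → g ∈ M) :
    ∃ a, M.index = 1 + a * Nat.card T₀ := by
  classical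
  set z : G ⧸ M := QuotientGroup.mk 1 with hz
  let Ω := orbitRel.Quotient T₀ (G ⧸ M)
  haveI : Fintype Ω := Fintype.ofFinite Ω
  have hfix : ∀ t : T₀, t • z = z := fun t => by
    show QuotientGroup.mk ((t : G) * 1) = _
    rw [hz, QuotientGroup.eq]
    simpa using hle t.2
  have hzmk : ∀ u : G ⧸ M, (Quotient.mk'' u : Ω) = Quotient.mk'' z → u = z := by
    intro u hu
    obtain ⟨t, ht⟩ : u ∈ orbit T₀ z := orbitRel_apply.1 (Quotient.eq''.1 hu)
    exact ht.symm.trans (hfix t)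
  have hfree : ∀ u : G ⧸ M, u ≠ z → stabilizer T₀ u = ⊥ := by
    intro u hu
    rw [eq_bot_iff]
    intro t ht
    rw [Subgroup.mem_bot]
    by_contra ht1
    induction u using QuotientGroup.induction_on with
    | _ g =>
      refine hu ?_
      rw [hz, QuotientGroup.eq]
      have h1 : QuotientGroup.mk ((t : G) * g) = (QuotientGroup.mk g : G ⧸ M) := ht
      have h2 : g⁻¹ * (t : G) * g ∈ M := by
        have h3 := QuotientGroup.eq.1 h1.symm
        rwa [← mul_assoc] at h3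
      simpa using inv_mem (h t t.2 (fun e => ht1 (Subtype.ext e)) g h2)
  have hc := Nat.card_congr (selfEquivSigmaOrbitsQuotientStabilizer T₀ (G ⧸ M))
  rw [Nat.card_sigma] at hc
  refine ⟨Fintype.card Ω - 1, ?_⟩
  rw [← Finset.sum_erase_add _ _ (Finset.mem_univ (Quotient.mk'' z : Ω)),
    Finset.sum_congr rfl (g := fun _ => Nat.card T₀) (fun ω hω => ?_), Finset.sum_const, smul_eq_mul,
    Finset.card_erase_of_mem (Finset.mem_univ _), Finset.card_univ] at hc
  · have hone : Nat.card (T₀ ⧸ stabilizer T₀ (Quotient.out (Quotient.mk'' z : Ω))) = 1 := by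
      rw [hzmk _ (Quotient.out_eq' _)]
      have htop : stabilizer T₀ z = ⊤ := (eq_top_iff' _).2 hfix
      rw [← Subgroup.index, htop, Subgroup.index_top]
    rw [hone] at hc
    show Nat.card (G ⧸ M) = _
    rw [hc, add_comm]
  · have hne : Quotient.out ω ≠ z := fun e => (Finset.mem_erase.1 hω).1 (by rw [← e, Quotient.out_eq'])
    rw [← Subgroup.index, hfree _ hne, Subgroup.index_bot]

/-- A Sylow subgroup of a Hall subgroup is one of the group. -/
theorem exists_sylow_le {T₀ : Subgroup G} (hall : Nat.Coprime (Nat.card T₀) T₀.index) {M : Subgroup G}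
    (hle : T₀ ≤ M) {r : ℕ} [hr : Fact r.Prime] (hd : r ∣ Nat.card T₀) :
    ∃ P : Sylow r M, (P : Subgroup M).map M.subtype ≤ T₀ ∧ (P : Subgroup M) ≠ ⊥ := by
  obtain ⟨Q⟩ := (inferInstance : Nonempty (Sylow r (T₀.subgroupOf M)))
  have hc : Nat.card ((Q : Subgroup (T₀.subgroupOf M)).map (T₀.subgroupOf M).subtype) =
      r ^ (Nat.card M).factorization r := by
    rw [Subgroup.card_map_of_injective (Subtype.val_injective), Sylow.card_eq_multiplicity,
      Nat.card_congr (subgroupOfEquivOfLe hle).toEquiv]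
    congr 1
    refine le_antisymm ((Nat.factorization_le_iff_dvd Nat.card_pos.ne' Nat.card_pos.ne').2
      (card_dvd_of_le hle) r) ?_
    refine le_trans ((Nat.factorization_le_iff_dvd Nat.card_pos.ne' Nat.card_pos.ne').2
      M.card_subgroup_dvd_card r) ?_
    rw [← Subgroup.card_mul_index T₀, Nat.factorization_mul Nat.card_pos.ne' index_ne_zero_of_finite,
      Finsupp.add_apply, Nat.factorization_eq_zero_of_not_dvd (n := T₀.index) (fun h =>
        hr.out.ne_one (Nat.eq_one_of_dvd_coprimes hall hd h)), add_zero]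
  refine ⟨Sylow.ofCard _ hc, ?_, ?_⟩
  · rw [Sylow.coe_ofCard]
    rintro _ ⟨w, ⟨v, -, rfl⟩, rfl⟩
    exact v.2
  · intro h
    have h1 := (congrArg (fun K : Subgroup M => Nat.card K) h).symm
    simp only [Subgroup.card_bot, Sylow.coe_ofCard, hc] at h1
    have h2 : 1 ≤ (Nat.card M).factorization r :=
      hr.out.factorization_pos_of_dvd Nat.card_pos.ne' (hd.trans (card_dvd_of_le hle))
    exact absurd h1.symm (Nat.one_lt_pow (by omega) hr.out.one_lt).ne'

/-- An element moving a Hall element of the torus into an overgroup lies in the overgroup. -/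
theorem mem_of_conj_mem {T T₀ H M : Subgroup G} (hT₀ : T₀ ≤ T) (hTH : T ≤ H) (hHM : H ≤ M)
    (hall : Nat.Coprime (Nat.card T₀) T₀.index)
    (hfix : ∀ x ∈ T₀, x ≠ 1 → ∀ g : G, g⁻¹ * x * g ∈ T → g ∈ H)
    {x : G} (hx : x ∈ T₀) (hx1 : x ≠ 1) {g : G} (hg : g⁻¹ * x * g ∈ M) : g ∈ M := by
  have hn : orderOf x ≠ 1 := by rwa [Ne, orderOf_eq_one_iff]
  obtain ⟨r, hr, hrd⟩ := Nat.exists_prime_and_dvd hn
  haveI := Fact.mk hr
  set x' := x ^ (orderOf x / r) with hx'
  have hx'T : x' ∈ T₀ := pow_mem hx _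
  have ho : orderOf x' = r := orderOf_pow_orderOf_div (orderOf_pos x).ne' hrd
  have hx'1 : x' ≠ 1 := fun e => hr.ne_one (by rw [← ho, e, orderOf_one])
  have hgM : g⁻¹ * x' * g ∈ M := by
    have e : g⁻¹ * x' * g = (g⁻¹ * x * g) ^ (orderOf x / r) := by
      have h := conj_pow (a := g⁻¹) (b := x) (i := orderOf x / r)
      rw [inv_inv] at h
      exact h.symm
    rw [e]
    exact pow_mem hg _
  have hT₀M : T₀ ≤ M := hT₀.trans (hTH.trans hHM)
  obtain ⟨P, hP, -⟩ := exists_sylow_le hall hT₀M (r := r)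
    (hrd.trans (Subgroup.orderOf_dvd_natCard _ hx))
  set w : M := ⟨g⁻¹ * x' * g, hgM⟩ with hw
  have how : orderOf w = r := by
    rw [hw, Subgroup.orderOf_mk]
    have e : g⁻¹ * x' * g = MulAut.conj g⁻¹ x' := by rw [MulAut.conj_apply, inv_inv]
    rw [e, MulEquiv.orderOf_eq, ho]
  obtain ⟨Q, hQ⟩ := (IsPGroup.of_card (n := 1) (by rw [Nat.card_zpowers, how, pow_one]) :
    IsPGroup r (zpowers w)).exists_le_sylow
  obtain ⟨m, hm⟩ := MulAction.exists_smul_eq M P Q
  have hwQ : w ∈ ((m • P : Sylow r M) : Subgroup M) := hm.symm ▸ hQ (mem_zpowers w)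
  rw [Sylow.coe_subgroup_smul, Subgroup.mem_smul_pointwise_iff_exists] at hwQ
  obtain ⟨v, hv, hvw⟩ := hwQ
  have hvT : (v : G) ∈ T := hT₀ (hP ⟨v, hv, rfl⟩)
  have e : (m : G) * v * (m : G)⁻¹ = g⁻¹ * x' * g := congrArg Subtype.val hvw
  have hgm : (g * m)⁻¹ * x' * (g * m) = v := by
    rw [mul_inv_rev, show (m : G)⁻¹ * g⁻¹ * x' * (g * m) = (m : G)⁻¹ * (g⁻¹ * x' * g) * m by group, ← e]
    group
  have h1 := hHM (hfix x' hx'T hx'1 (g * m) (hgm ▸ hvT))
  exact (mul_mem_cancel_right m.2).1 h1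

/-- In a perfect group the normaliser of an abelian self-centralising torus is bigger. -/
theorem normalizer_ne_torus (hperf : commutator G = ⊤) {T T₀ H : Subgroup G} (hT₀ : T₀ ≤ T)
    (hall : Nat.Coprime (Nat.card T₀) T₀.index) (ht : 1 < Nat.card T₀)
    (hcomm : ∀ a ∈ T, ∀ b ∈ T, a * b = b * a)
    (hfix : ∀ x ∈ T₀, x ≠ 1 → ∀ g : G, g⁻¹ * x * g ∈ T → g ∈ H) : H ≠ T := by
  rintro rfl
  obtain ⟨r, hr, hrd⟩ := Nat.exists_prime_and_dvd ht.ne'
  haveI := Fact.mk hr
  obtain ⟨P', hP', hne'⟩ := exists_sylow_le hall (le_top : T₀ ≤ ⊤) (r := r) hrd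
  let P : Sylow r G := Sylow.ofCard ((P' : Subgroup (⊤ : Subgroup G)).map (⊤ : Subgroup G).subtype) (by
    rw [Subgroup.card_map_of_injective Subtype.val_injective, Sylow.card_eq_multiplicity, Subgroup.card_top])
  have hPT₀ : (P : Subgroup G) ≤ T₀ := hP'
  have hne : (P : Subgroup G) ≠ ⊥ := fun h => hne' ((Subgroup.map_eq_bot_iff_of_injective _
    Subtype.val_injective).1 h)
  have hN : normalizer (P : Set G) ≤ centralizer (P : Set G) := by
    intro h hh
    obtain ⟨⟨x, hx⟩, hx1'⟩ := Subgroup.ne_bot_iff_exists_ne_one.1 hne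
    have hx1 : x ≠ 1 := fun e => hx1' (Subtype.ext e)
    have hconj : h⁻¹ * x * h ∈ H := by
      refine hT₀ (hPT₀ ?_)
      have h3 := (mem_normalizer_iff.1 (inv_mem hh) x).1 hx
      rwa [inv_inv] at h3
    have hH : h ∈ H := hfix x (hPT₀ hx) hx1 h hconj
    rw [mem_centralizer_iff]
    exact fun a ha => hcomm a (hT₀ (hPT₀ ha)) h hH
  haveI : IsMulCommutative P :=
    ⟨⟨fun a b => Subtype.ext (hcomm a (hT₀ (hPT₀ a.2)) b (hT₀ (hPT₀ b.2)))⟩⟩
  have hker : (MonoidHom.transferSylow P hN).ker = ⊤ := by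
    rw [eq_top_iff, ← hperf, _root_.commutator_def, Subgroup.commutator_le]
    intro a _ b _
    rw [MonoidHom.mem_ker, map_commutatorElement, commutatorElement_eq_one_iff_mul_comm]
    exact Subtype.ext (hcomm _ (hT₀ (hPT₀ (MonoidHom.transferSylow P hN a).2)) _
      (hT₀ (hPT₀ (MonoidHom.transferSylow P hN b).2)))
  have hd := (MonoidHom.ker_transferSylow_isComplement' P hN).disjoint
  rw [hker, disjoint_iff, top_inf_eq] at hd
  exact hne hd

/-- The two congruences of an overgroup of the torus normaliser. -/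
theorem exists_two_congruences {T T₀ H M : Subgroup G} (hT₀ : T₀ ≤ T) (hTH : T ≤ H) (hHM : H ≤ M)
    (hall : Nat.Coprime (Nat.card T₀) T₀.index)
    (hfix : ∀ x ∈ T₀, x ≠ 1 → ∀ g : G, g⁻¹ * x * g ∈ T → g ∈ H) :
    ∃ a b, H.relIndex M = 1 + a * Nat.card T₀ ∧ M.index = 1 + b * Nat.card T₀ := by
  have hle : T₀ ≤ M := hT₀.trans (hTH.trans hHM)
  obtain ⟨b, hb⟩ := exists_index_eq M T₀ hle
    fun x hx hx1 g hg => mem_of_conj_mem hT₀ hTH hHM hall hfix hx hx1 hg
  obtain ⟨a, ha⟩ := exists_index_eq (H.subgroupOf M) (T₀.subgroupOf M)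
    (fun x hx => hTH (hT₀ hx))
    (fun x hx hx1 g hg => mem_of_conj_mem hT₀ hTH le_rfl hall hfix hx
      (fun e => hx1 (Subtype.ext e)) (g := (g : G)) hg)
  rw [Nat.card_congr (subgroupOfEquivOfLe hle).toEquiv] at ha
  exact ⟨a, b, ha, hb⟩

end Cfsg.Agent.H25.SUThree
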