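import Cfsg.Agent.H97.SingerNormalizer
import Cfsg.Agent.H99.Aschbacher.FormTypeTwo
import Cfsg.Agent.H99.Aschbacher.UnitaryGroup

/-! The torus of an adjoint-closed cubic field inside `SU₃(q)`. -/

set_option autoImplicit false

open scoped MatrixGroups Matrix

namespace Cfsg.Agent.H25.SUThree

open Cfsg.Geo

variable {F : Type*} [Field F] {q : ℕ}

/-- The embedding of `SU₃` in `GL₃`. -/
def emb (F : Type*) [Field F] (q : ℕ) : SU 3 F q →* GL (Fin 3) F :=
  (GU 3 F q).subtype.comp (H3.suToGU 3 F q)

theorem emb_val (g : SU 3 F q) :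
    (emb F q g : Matrix (Fin 3) (Fin 3) F) = (g.1 : Matrix (Fin 3) (Fin 3) F) := rfl

theorem emb_injective : Function.Injective (emb F q) :=
  Subtype.val_injective.comp (H3.suToGU_injective 3)

theorem emb_range : (emb F q).range = H99.Asch.suGL 3 F q := by
  rw [emb, MonoidHom.range_comp, H3.range_suToGU]
  ext g
  constructor
  · rintro ⟨x, hx, rfl⟩
    exact ⟨x.2, hx⟩
  · rintro ⟨h1, h2⟩
    exact ⟨⟨g, h1⟩, h2, rfl⟩

variable {K : Subalgebra F (Matrix (Fin 3) (Fin 3) F)}

/-- The elements of `SU₃` lying in the field. -/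
def torus [Fintype F] (q : ℕ) (K : Subalgebra F (Matrix (Fin 3) (Fin 3) F)) : Subgroup (SU 3 F q) where
  carrier := {g | (emb F q g : Matrix (Fin 3) (Fin 3) F) ∈ K}
  one_mem' := by simp [K.one_mem]
  mul_mem' {a b} ha hb := by
    show (emb F q (a * b) : Matrix (Fin 3) (Fin 3) F) ∈ K
    rw [map_mul, Units.val_mul]; exact K.mul_mem ha hb
  inv_mem' {a} ha := by
    show (emb F q a⁻¹ : Matrix (Fin 3) (Fin 3) F) ∈ K
    have e : a⁻¹ = a ^ (orderOf a - 1) := by
      refine inv_eq_of_mul_eq_one_right ?_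
      rw [← pow_succ', Nat.sub_add_cancel (orderOf_pos a), pow_orderOf_eq_one]
    rw [e, map_pow, Units.val_pow_eq_pow_val]
    exact pow_mem ha _

variable [Fintype F]

theorem mem_torus {g : SU 3 F q} :
    g ∈ torus q K ↔ (emb F q g : Matrix (Fin 3) (Fin 3) F) ∈ K := Iff.rfl

theorem torus_comm (hK : IsFieldSubalgebra 3 K) :
    ∀ a ∈ torus q K, ∀ b ∈ torus q K, a * b = b * a := fun a ha b hb =>
  emb_injective (Units.ext (by rw [map_mul, map_mul, Units.val_mul, Units.val_mul]; exact hK.comm _ ha _ hb))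

/-- The normaliser of the field in `SU₃`. -/
def fieldNormalizer (q : ℕ) (K : Subalgebra F (Matrix (Fin 3) (Fin 3) F)) : Subgroup (SU 3 F q) :=
  (subalgebraNormalizer K).comap (emb F q)

theorem torus_le (hK : IsFieldSubalgebra 3 K) : torus q K ≤ fieldNormalizer q K := by
  intro g hg
  show emb F q g ∈ subalgebraNormalizer K
  have hinv : ((emb F q g)⁻¹ : GL (Fin 3) F).1 ∈ K := by
    have h := (torus q K).inv_mem hg
    rwa [mem_torus, map_inv] at h
  intro k
  refine ⟨fun hk => K.mul_mem (K.mul_mem hg hk) hinv, fun hk => ?_⟩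
  have h := K.mul_mem (K.mul_mem hinv hk) hg
  simpa [mul_assoc] using h

/-- A non-scalar element of the field generates it. -/
theorem adjoin_eq (hK : IsFieldSubalgebra 3 K) {x : Matrix (Fin 3) (Fin 3) F} (hx : x ∈ K)
    (hns : ∀ c : F, x ≠ c • 1) : Algebra.adjoin F {x} = K := by
  letI : Field K := (H97.isField_fieldSubalgebra (by norm_num) hK).toField
  have hs : IsSimpleOrder (Subalgebra F K) :=
    Subalgebra.isSimpleOrder_of_finrank_prime F K (by rw [hK.finrank_eq]; exact Nat.prime_three)
  have htop : Algebra.adjoin F {(⟨x, hx⟩ : K)} = ⊤ :=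
    (eq_bot_or_eq_top _).resolve_left fun e => by
      obtain ⟨w, hw⟩ : (⟨x, hx⟩ : K) ∈ (⊥ : Subalgebra F K) := e ▸ Algebra.self_mem_adjoin_singleton F _
      refine hns w ?_
      rw [← Algebra.algebraMap_eq_smul_one]
      exact (congrArg Subtype.val hw).symm
  refine le_antisymm (Algebra.adjoin_le (Set.singleton_subset_iff.2 hx)) fun k hk => ?_
  have h : (K.val ⟨k, hk⟩) ∈ (Algebra.adjoin F {(⟨x, hx⟩ : K)}).map K.val :=
    ⟨⟨k, hk⟩, htop ▸ Algebra.mem_top, rfl⟩
  rw [AlgHom.map_adjoin, Set.image_singleton] at h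
  exact h

/-- An element moving a non-scalar element of the field into the field normalises it. -/
theorem mem_normalizer_of_conj (hK : IsFieldSubalgebra 3 K) {x : Matrix (Fin 3) (Fin 3) F} (hx : x ∈ K)
    (hns : ∀ c : F, x ≠ c • 1) (g : GL (Fin 3) F)
    (hg : ((g⁻¹ : GL (Fin 3) F) : Matrix (Fin 3) (Fin 3) F) * x * g ∈ K) :
    g ∈ subalgebraNormalizer K := by
  set A := (g : Matrix (Fin 3) (Fin 3) F)
  set A' := ((g⁻¹ : GL (Fin 3) F) : Matrix (Fin 3) (Fin 3) F)
  have hAA : A * A' = 1 := Units.mul_inv g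
  have hA'A : A' * A = 1 := Units.inv_mul g
  have hfwd : ∀ k ∈ K, A' * k * A ∈ K := by
    intro k hk
    rw [← adjoin_eq hK hx hns] at hk
    induction hk using Algebra.adjoin_induction with
    | mem y hy => rw [Set.mem_singleton_iff.1 hy]; exact hg
    | algebraMap r =>
      rw [← Algebra.commutes, mul_assoc, hA'A, mul_one]
      exact K.algebraMap_mem r
    | add y z _ _ hy hz => rw [mul_add, add_mul]; exact K.add_mem hy hz
    | mul y z _ _ hy hz =>
      rw [show A' * (y * z) * A = A' * y * (A * A') * z * A by rw [hAA, mul_one]; simp only [mul_assoc]]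
      simpa only [mul_assoc] using K.mul_mem hy hz
  intro k
  refine ⟨fun hk => ?_, fun hk => ?_⟩
  · let f : K → K := fun y => ⟨A' * y * A, hfwd y y.2⟩
    have hinj : Function.Injective f := fun y z h => by
      have h0 : A' * (y : Matrix (Fin 3) (Fin 3) F) * A = A' * z * A := congrArg Subtype.val h
      have h1 : A * (A' * y * A) * A' = A * (A' * z * A) * A' := by rw [h0]
      simp only [← mul_assoc, hAA, one_mul] at h1
      simp only [mul_assoc, hAA, mul_one] at h1
      exact Subtype.ext h1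
    obtain ⟨y, hy⟩ := (Finite.injective_iff_surjective.1 hinj) ⟨k, hk⟩
    have e : A' * (y : Matrix (Fin 3) (Fin 3) F) * A = k := congrArg Subtype.val hy
    rw [← e, show A * (A' * y * A) * A' = A * A' * y * (A * A') by simp only [mul_assoc], hAA, one_mul,
      mul_one]
    exact y.2
  · have h := hfwd _ hk
    rwa [show A' * (A * k * A') * A = A' * A * k * (A' * A) by simp only [mul_assoc], hA'A, one_mul,
      mul_one] at h

/-- The commutant of the field is the field. -/
theorem mem_of_commute (hK : IsFieldSubalgebra 3 K) {g : Matrix (Fin 3) (Fin 3) F}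
    (hg : ∀ k ∈ K, g * k = k * g) : g ∈ K := by
  obtain ⟨v₀, hv₀⟩ := exists_ne (0 : Fin 3 → F)
  obtain ⟨Φ, hΦ⟩ := H97.exists_eval_equiv (by norm_num) hK hv₀
  obtain ⟨k, hk⟩ := Φ.surjective (g *ᵥ v₀)
  rw [hΦ] at hk
  have : g = (k : Matrix (Fin 3) (Fin 3) F) := by
    refine Matrix.ext_of_mulVec_single fun i => ?_
    obtain ⟨y, hy⟩ := Φ.surjective (Pi.single i 1)
    rw [← hy, hΦ, Matrix.mulVec_mulVec, Matrix.mulVec_mulVec, hg _ y.2, ← Matrix.mulVec_mulVec, ← hk,
      Matrix.mulVec_mulVec, hK.comm _ y.2 _ k.2]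
  rw [this]; exact k.2

/-- The centraliser of a non-scalar torus element is the torus. -/
theorem mem_torus_of_commute (hK : IsFieldSubalgebra 3 K) {x g : SU 3 F q} (hx : x ∈ torus q K)
    (hns : ∀ c : F, (emb F q x : Matrix (Fin 3) (Fin 3) F) ≠ c • 1) (hg : g * x = x * g) :
    g ∈ torus q K := by
  refine mem_of_commute hK fun k hk => ?_
  rw [← adjoin_eq hK hx hns] at hk
  have h : (emb F q g : Matrix (Fin 3) (Fin 3) F) * (emb F q x : Matrix (Fin 3) (Fin 3) F) =
      (emb F q x : Matrix (Fin 3) (Fin 3) F) * (emb F q g : Matrix (Fin 3) (Fin 3) F) := by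
    rw [← Units.val_mul, ← Units.val_mul, ← map_mul, ← map_mul, hg]
  induction hk using Algebra.adjoin_induction with
  | mem y hy => rw [Set.mem_singleton_iff.1 hy]; exact h
  | algebraMap r => exact (Algebra.commutes r _).symm
  | add y z _ _ hy hz => rw [mul_add, add_mul, hy, hz]
  | mul y z _ _ hy hz => rw [← mul_assoc, hy, mul_assoc, hz, mul_assoc]

/-- The torus has index dividing three in the normaliser. -/
theorem card_normalizer (hK : IsFieldSubalgebra 3 K) :
    Nat.card (fieldNormalizer q K) = Nat.card (torus q K) ∨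
      Nat.card (fieldNormalizer q K) = 3 * Nat.card (torus q K) := by
  classical
  letI : Field K := (H97.isField_fieldSubalgebra (by norm_num) hK).toField
  haveI : FiniteDimensional F K := inferInstance
  haveI : Finite K := inferInstance
  let A : fieldNormalizer q K → Matrix (Fin 3) (Fin 3) F := fun h => emb F q h.1
  let A' : fieldNormalizer q K → Matrix (Fin 3) (Fin 3) F := fun h => ((emb F q h.1)⁻¹ : GL (Fin 3) F).1
  have hAA : ∀ h, A h * A' h = 1 := fun h => Units.mul_inv _
  have hA'A : ∀ h, A' h * A h = 1 := fun h => Units.inv_mul _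
  have hmem : ∀ h (y : K), A h * y * A' h ∈ K := fun h y => (h.2 y.1).1 y.2
  have hmem' : ∀ h (y : K), A' h * y * A h ∈ K := fun h y => by
    refine (h.2 _).2 ?_
    show A h * (A' h * y * A h) * A' h ∈ K
    rw [show A h * (A' h * y * A h) * A' h = A h * A' h * y * (A h * A' h) by simp only [mul_assoc],
      hAA, one_mul, mul_one]
    exact y.2
  let σ : fieldNormalizer q K → (K ≃ₐ[F] K) := fun h =>
    { toFun := fun y => ⟨A h * y * A' h, hmem h y⟩
      invFun := fun y => ⟨A' h * y * A h, hmem' h y⟩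
      left_inv := fun y => Subtype.ext (by
        show A' h * (A h * y * A' h) * A h = y
        rw [show A' h * (A h * y * A' h) * A h = A' h * A h * y * (A' h * A h) by simp only [mul_assoc],
          hA'A, one_mul, mul_one])
      right_inv := fun y => Subtype.ext (by
        show A h * (A' h * y * A h) * A' h = y
        rw [show A h * (A' h * y * A h) * A' h = A h * A' h * y * (A h * A' h) by simp only [mul_assoc],
          hAA, one_mul, mul_one])
      map_mul' := fun y z => Subtype.ext (by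
        show A h * (y.1 * z.1) * A' h = A h * y * A' h * (A h * z * A' h)
        rw [show A h * y * A' h * (A h * z * A' h) = A h * y * (A' h * A h) * z * A' h by
          simp only [mul_assoc], hA'A, mul_one]
        simp only [mul_assoc])
      map_add' := fun y z => Subtype.ext (by
        show A h * (y.1 + z.1) * A' h = A h * y * A' h + A h * z * A' h
        rw [mul_add, add_mul])
      commutes' := fun r => Subtype.ext (by
        show A h * algebraMap F (Matrix (Fin 3) (Fin 3) F) r * A' h = algebraMap F _ r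
        rw [← Algebra.commutes, mul_assoc, hAA, mul_one]) }
  let ψ : fieldNormalizer q K →* (K ≃ₐ[F] K) := MonoidHom.mk' σ fun a b => by
    refine AlgEquiv.ext fun y => Subtype.ext ?_
    show A (a * b) * y.1 * A' (a * b) = A a * (A b * y * A' b) * A' a
    simp only [A, A', Subgroup.coe_mul, map_mul, mul_inv_rev, Units.val_mul, mul_assoc]
  have hker : ψ.ker = (torus q K).subgroupOf (fieldNormalizer q K) := by
    ext h
    rw [MonoidHom.mem_ker, Subgroup.mem_subgroupOf, mem_torus]
    constructor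
    · intro he
      refine mem_of_commute hK fun k hk => ?_
      have h1 : A h * k * A' h = k := congrArg Subtype.val (AlgEquiv.congr_fun he ⟨k, hk⟩)
      calc A h * k = A h * k * (A' h * A h) := by rw [hA'A, mul_one]
        _ = k * A h := by rw [← mul_assoc, h1]
    · intro hh
      refine AlgEquiv.ext fun y => Subtype.ext ?_
      show A h * y * A' h = y
      rw [hK.comm _ hh _ y.2, mul_assoc, hAA, mul_one]
  haveI : IsGalois F K := GaloisField.instIsGaloisOfFinite
  have hd : Nat.card ψ.range ∣ 3 := by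
    have h := Subgroup.card_subgroup_dvd_card ψ.range
    rwa [IsGalois.card_aut_eq_finrank, hK.finrank_eq] at h
  have hmul := Subgroup.card_mul_index ψ.ker
  rw [Subgroup.index_ker, hker, Nat.card_congr (Subgroup.subgroupOfEquivOfLe (torus_le hK)).toEquiv]
    at hmul
  rcases (Nat.dvd_prime Nat.prime_three).1 hd with h | h <;> rw [h] at hmul
  · left; omega
  · right; omega

/-- Determinants in the field are norms. -/
theorem det_pow (hF : Fintype.card F = q ^ 2) (hK : IsFieldSubalgebra 3 K) (x : K) :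
    algebraMap F K (x : Matrix (Fin 3) (Fin 3) F).det = x ^ (1 + q ^ 2 + q ^ 4) := by
  letI : Field K := (H97.isField_fieldSubalgebra (by norm_num) hK).toField
  haveI : Finite K := inferInstance
  obtain ⟨v₀, hv₀⟩ := exists_ne (0 : Fin 3 → F)
  obtain ⟨Φ, hΦ⟩ := H97.exists_eval_equiv (by norm_num) hK hv₀
  have hdet : (x : Matrix (Fin 3) (Fin 3) F).det = Algebra.norm F x := by
    rw [Algebra.norm_apply, ← LinearMap.det_toLin', ← LinearMap.det_conj (Algebra.lmul F K x) Φ]
    congr 1
    refine LinearMap.ext fun v => ?_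
    obtain ⟨a, rfl⟩ := Φ.surjective v
    simp only [LinearEquiv.coe_coe, LinearMap.comp_apply, LinearEquiv.conj_apply_apply,
      LinearEquiv.symm_apply_apply, Algebra.coe_lmul_eq_mul, LinearMap.mul_apply', Matrix.toLin'_apply]
    rw [hΦ, hΦ, Matrix.mulVec_mulVec]
    simp [← hΦ, LinearEquiv.symm_apply_apply]
  rw [hdet, FiniteField.algebraMap_norm_eq_pow_sum, hK.finrank_eq, Nat.card_eq_fintype_card, hF]
  congr 1
  simp [Finset.sum_range_succ]
  ring

/-- The adjoint acts on the field as the involution. -/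
theorem adj_eq_pow (hF : Fintype.card F = q ^ 2) (hK : IsFieldSubalgebra 3 K)
    (hadj : IsAdjointClosedFor (hermForm 3 F q) K) (x : K) :
    (H99.Asch.unitaryData hF 3).adj (x : Matrix (Fin 3) (Fin 3) F) =
      ((x ^ q ^ 3 : K) : Matrix (Fin 3) (Fin 3) F) := by
  classical
  letI : Field K := (H97.isField_fieldSubalgebra (by norm_num) hK).toField
  letI : Fintype K := Fintype.ofFinite K
  obtain ⟨p, n, hp, hcp, hn, hqp⟩ := H3.exists_q_eq_pow hF
  haveI := Fact.mk hp
  haveI : CharP K p := charP_of_injective_algebraMap (algebraMap F K).injective p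
  let D := H99.Asch.unitaryData hF 3
  have hadjK : ∀ k ∈ K, D.adj k ∈ K := by
    intro k hk
    obtain ⟨k', hk', hkk⟩ := hadj k hk
    have e' : D.adj k = k' := by
      refine Matrix.ext_of_mulVec_single fun i => ?_
      have hpt : ∀ u, hermForm 3 F q u (D.adj k *ᵥ Pi.single i 1) = hermForm 3 F q u (k' *ᵥ Pi.single i 1) := by
        intro u
        rw [← hkk, ← H99.Asch.unitaryData_form hF, D.form_adj]
      funext j
      have h1 := hpt (Pi.single j 1)
      rw [H3.hermForm_single_left, H3.hermForm_single_left, one_mul, one_mul] at h1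
      exact (H3.conjQ hF).injective (by rwa [H3.conjQ_apply, H3.conjQ_apply])
    rw [e']; exact hk'
  let τ : K →+* K :=
    { toFun := fun x => ⟨D.adj x, hadjK _ x.2⟩
      map_one' := Subtype.ext D.adj_one
      map_mul' := fun x y => Subtype.ext (by
        show D.adj ((x : Matrix (Fin 3) (Fin 3) F) * y) = D.adj x * D.adj y
        rw [hK.comm x x.2 y y.2, D.adj_mul])
      map_zero' := Subtype.ext D.adj_zero
      map_add' := fun x y => Subtype.ext (D.adj_add _ _) }
  have hττ : ∀ x, τ (τ x) = x := fun x => Subtype.ext (D.adj_adj _)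
  have hτid : τ ≠ RingHom.id K := fun h => by
    obtain ⟨c, hc⟩ := H3.exists_conj_ne hF
    have h1 : D.adj (algebraMap F _ c) = algebraMap F _ c :=
      congrArg Subtype.val (RingHom.congr_fun h ⟨_, K.algebraMap_mem c⟩)
    rw [D.adj_algebraMap] at h1
    exact hc ((algebraMap F (Matrix (Fin 3) (Fin 3) F)).injective h1)
  have hcard : Fintype.card K = q ^ 6 := by
    rw [Module.card_eq_pow_finrank (K := F), hK.finrank_eq, hF, ← pow_mul]
  obtain ⟨K', hK', hK'c⟩ := H99.Asch.card_eq_sq_fixed τ hττ hτid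
  have hK'q : Nat.card K' = q ^ 3 := Nat.pow_left_injective two_ne_zero (by
    show Nat.card K' ^ 2 = (q ^ 3) ^ 2
    rw [← hK'c, hcard, ← pow_mul])
  have hmem : ∀ x : K, τ x = x ↔ x ^ q ^ 3 = x := fun x => by
    rw [← hK', H99.Asch.mem_subfield_iff, hK'q]
  show (τ x).1 = _
  refine congrArg Subtype.val ?_
  have hs := (hmem (x + τ x)).1 (by rw [map_add, hττ, add_comm])
  have hp' := (hmem (x * τ x)).1 (by rw [map_mul, hττ, mul_comm])
  have hadd : ∀ a b : K, (a + b) ^ q ^ 3 = a ^ q ^ 3 + b ^ q ^ 3 := fun a b => by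
    rw [hqp, ← pow_mul, add_pow_char_pow]
  rw [hadd] at hs
  rw [mul_pow] at hp'
  have key : (x ^ q ^ 3 - x) * (x ^ q ^ 3 - τ x) = 0 := by linear_combination (x ^ q ^ 3) * hs - hp'
  rcases mul_eq_zero.1 key with h | h
  · rw [(hmem x).2 (sub_eq_zero.1 h), sub_eq_zero.1 h]
  · exact (sub_eq_zero.1 h).symm

/-- The torus as units of the field of order dividing `q²-q+1`. -/
theorem torus_cyclic (hF : Fintype.card F = q ^ 2) (hK : IsFieldSubalgebra 3 K)
    (hadj : IsAdjointClosedFor (hermForm 3 F q) K) {s : ℕ} (hs : s + q = q * q + 1) :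
    IsCyclic (torus q K) ∧ Nat.card (torus q K) = s := by
  classical
  letI : Field K := (H97.isField_fieldSubalgebra (by norm_num) hK).toField
  letI : Fintype K := Fintype.ofFinite K
  have hq := H3.two_le_q hF
  have hq2 : q ≤ q * q := Nat.le_mul_self q
  let D := H99.Asch.unitaryData hF 3
  let f : torus q K →* Kˣ := MonoidHom.toHomUnits
    { toFun := fun g => (⟨emb F q g.1, g.2⟩ : K)
      map_one' := Subtype.ext (by simp)
      map_mul' := fun a b => Subtype.ext (by simp) }
  have hfv : ∀ g : torus q K, ((f g : K) : Matrix (Fin 3) (Fin 3) F) = emb F q g.1 := fun g => rfl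
  have hinj : Function.Injective f := fun a b h => Subtype.ext (emb_injective (Units.ext (by
    rw [← hfv, ← hfv, h])))
  have hA : (q ^ 3 + 1 : ℕ) = (q + 1) * s := by
    have h : s = q * q + 1 - q := by omega
    zify
    have e : (s : ℤ) = q * q + 1 - q := by omega
    rw [e]; ring
  have hB : 1 + q ^ 2 + q ^ 4 = q * (q ^ 3 + 1) + s := by nlinarith
  have hrange : f.range = (powMonoidHom s : Kˣ →* Kˣ).ker := by
    ext u
    rw [MonoidHom.mem_range, MonoidHom.mem_ker, powMonoidHom_apply]
    constructor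
    · rintro ⟨g, rfl⟩
      have hg : emb F q g.1 ∈ H99.Asch.suGL 3 F q := emb_range (F := F) (q := q) ▸ ⟨g.1, rfl⟩
      have h1 : D.adj (emb F q g.1 : Matrix (Fin 3) (Fin 3) F) =
          ((emb F q g.1)⁻¹ : GL (Fin 3) F).1 :=
        H99.Asch.FormData.mem_isom_iff_adj.1 (by rw [H99.Asch.unitaryData_isom]; exact hg.1)
      have h2 := adj_eq_pow hF hK hadj (f g : K)
      rw [hfv] at h2
      have h3 : ((f g : K) ^ q ^ 3) * (f g : K) = 1 := Subtype.ext (by
        show (((f g : K) ^ q ^ 3 : K) : Matrix (Fin 3) (Fin 3) F) * ((f g : K) : Matrix (Fin 3) (Fin 3) F) = 1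
        rw [← h2, h1, hfv]; exact Units.inv_mul _)
      have h4 : (f g : K) ^ (1 + q ^ 2 + q ^ 4) = 1 := by
        rw [← det_pow hF hK, hfv, H99.Asch.mem_specialLinear_iff.1 hg.2, map_one]
      rw [← pow_succ] at h3
      rw [hB, pow_add, mul_comm q, pow_mul, h3, one_pow, one_mul] at h4
      exact Units.ext (by rw [Units.val_pow_eq_pow_val, h4, Units.val_one])
    · intro hu
      have hu' : (u : K) ^ s = 1 := by rw [← Units.val_pow_eq_pow_val, hu, Units.val_one]
      have h1 : (u : K) ^ (q ^ 3 + 1) = 1 := by rw [hA, mul_comm, pow_mul, hu', one_pow]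
      set M : Matrix (Fin 3) (Fin 3) F := ((u : K) : Matrix (Fin 3) (Fin 3) F) with hM
      have hdet : M.det = 1 := by
        refine (algebraMap F K).injective ?_
        rw [hM, det_pow hF hK, map_one, hB, pow_add, mul_comm q, pow_mul, h1, one_pow, one_mul, hu']
      have hmul : (((u : K) ^ q ^ 3 : K) : Matrix (Fin 3) (Fin 3) F) * M = 1 := by
        have h := congrArg Subtype.val h1
        rw [pow_succ] at h
        exact h
      let g : GL (Fin 3) F := ⟨M, ((u : K) ^ q ^ 3 : K),
        by rw [hM, hK.comm _ (u : K).2 _ (((u : K) ^ q ^ 3 : K)).2]; exact hmul, hmul⟩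
      have hgsu : g ∈ H99.Asch.suGL 3 F q := by
        refine ⟨?_, H99.Asch.mem_specialLinear_iff.2 hdet⟩
        rw [← H99.Asch.unitaryData_isom hF]
        exact H99.Asch.FormData.mem_isom_iff_adj.2 (adj_eq_pow hF hK hadj (u : K))
      rw [← emb_range] at hgsu
      obtain ⟨g₀, hg₀⟩ := hgsu
      have hmemT : g₀ ∈ torus q K := by rw [mem_torus, hg₀]; exact (u : K).2
      exact ⟨⟨g₀, hmemT⟩, Units.ext (Subtype.ext (by rw [hfv]; exact congrArg Units.val hg₀))⟩
  refine ⟨isCyclic_of_injective f hinj, ?_⟩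
  rw [Nat.card_congr (MonoidHom.ofInjective hinj).toEquiv, hrange, IsCyclic.card_powMonoidHom_ker,
    Nat.card_units, Nat.card_eq_fintype_card, Module.card_eq_pow_finrank (K := F), hK.finrank_eq, hF]
  refine Nat.gcd_eq_right ⟨(q + 1) * (q ^ 3 - 1), ?_⟩
  have h1 : 1 ≤ q ^ 3 := Nat.one_le_pow _ _ (by omega)
  rw [← mul_assoc, mul_comm s, ← hA, ← pow_mul]
  zify [h1, Nat.one_le_pow (2 * 3) q (by omega)]
  ring

end Cfsg.Agent.H25.SUThree
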